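import Cfsg.Agent.ClBN.OrK
import Cfsg.Agent.ClRG.SLp
import Cfsg.Agent.S0250
import Cfsg.Agent.S2566
import Cfsg.Agent.CharBase.Basic

set_option autoImplicit false
set_option linter.unusedSectionVars false

/-!
The exceptional case of the orthogonal group of plus type in dimension four over the field of two elements.
-/

namespace Cfsg.Agent.ClBN

open Matrix

/-- groups mapping onto the symmetric group of degree three with a kernel of odd order -/
def P3 (G : Type*) [Group G] : Prop :=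
  ∃ f : G →* Equiv.Perm (Fin 3), Function.Surjective f ∧ ∀ x, f x = 1 → Odd (orderOf x)

lemma P3.of_equiv {G G' : Type*} [Group G] [Group G'] (h : P3 G) (e : G' ≃* G) : P3 G' := by
  obtain ⟨f, hf, hk⟩ := h
  refine ⟨f.comp e.toMonoidHom, hf.comp e.surjective, fun x hx => ?_⟩
  have := hk (e x) hx
  rwa [show orderOf (e x) = orderOf x from orderOf_injective e.toMonoidHom e.injective x] at this

lemma center_perm3 : ∀ σ : Equiv.Perm (Fin 3), (∀ τ : Equiv.Perm (Fin 3), τ * σ = σ * τ) → σ = 1 := by decide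

lemma P3.quot_center {G : Type*} [Group G] (h : P3 G) : P3 (G ⧸ Subgroup.center G) := by
  obtain ⟨f, hf, hk⟩ := h
  have hz : ∀ x ∈ Subgroup.center G, f x = 1 := by
    intro x hx
    apply center_perm3
    intro τ
    obtain ⟨y, rfl⟩ := hf τ
    rw [← map_mul, ← map_mul, Subgroup.mem_center_iff.1 hx y]
  refine ⟨QuotientGroup.lift _ f hz, ?_, ?_⟩
  · intro τ
    obtain ⟨y, rfl⟩ := hf τ
    exact ⟨(y : G ⧸ Subgroup.center G), rfl⟩
  · intro x hx
    obtain ⟨y, rfl⟩ := QuotientGroup.mk_surjective x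
    have h1 : f y = 1 := hx
    exact Odd.of_dvd_nat (hk y h1) (orderOf_map_dvd (QuotientGroup.mk' (Subgroup.center G)) y)

lemma perm3_steinberg : ∃ χ : Equiv.Perm (Fin 3) → ℂ, IsIrrCharacter (Equiv.Perm (Fin 3)) χ ∧
    ∀ P : Sylow 2 (Equiv.Perm (Fin 3)), χ 1 = Nat.card P ∧ ∀ x : Equiv.Perm (Fin 3), x ∈ P → x ≠ 1 → χ x = 0 := by
  obtain ⟨e⟩ := Cfsg.Agent.S0250.result (F := ZMod 2) (by simp [ZMod.card])
  have h1 : HasR 2 (Matrix.SpecialLinearGroup (Fin (1 + 1)) (ZMod 2)) :=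
    ⟨_, _, _, ClRG.rgSL 1 (ZMod 2), ClRG.rgSL_Grp, ClRG.isPGroup_U_SL 2, ClRG.not_dvd_H_SL 2⟩
  exact (h1.of_equiv e).steinberg

lemma P3.steinberg {G : Type*} [Group G] [Finite G] (h : P3 G) :
    ∃ χ : G → ℂ, IsIrrCharacter G χ ∧ ∀ P : Sylow 2 G, χ 1 = Nat.card P ∧ ∀ x : G, x ∈ P → x ≠ 1 → χ x = 0 := by
  obtain ⟨f, hf, hk⟩ := h
  obtain ⟨χ, h1, h2⟩ := perm3_steinberg
  refine ⟨χ ∘ f, CharBase.isIrrCharacter_comp_surjective h1 f hf, fun P => ?_⟩
  have h3 : ∀ x ∈ P, f x = 1 → x = 1 := by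
    intro x hx h4
    have h5 := hk x h4
    obtain ⟨k, h6⟩ := P.isPGroup' ⟨x, hx⟩
    have h7 : x ^ 2 ^ k = 1 := congrArg Subtype.val h6
    obtain ⟨j, -, h8⟩ := (Nat.dvd_prime_pow Nat.prime_two).1 (orderOf_dvd_of_pow_eq_one h7)
    rw [h8] at h5
    rcases Nat.eq_zero_or_pos j with h9 | h9
    · rw [h9, pow_zero, orderOf_eq_one_iff] at h8
      exact h8
    · exact absurd h5 (Nat.not_odd_iff_even.2 ((Nat.even_pow' h9.ne').2 even_two))
  obtain ⟨h4, h5⟩ := h2 (P.mapSurjective hf)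
  refine ⟨?_, fun x hx hx1 => ?_⟩
  · rw [Function.comp_apply, map_one, h4]
    congr 1
    rw [show Nat.card (P.mapSurjective hf) = Nat.card ((P : Subgroup G).map f) from rfl]
    symm
    refine Nat.card_congr (Equiv.ofBijective (fun x : P => (⟨f x, x, x.2, rfl⟩ : (P : Subgroup G).map f)) ⟨?_, ?_⟩)
    · intro x y hxy
      have h6 : f x = f y := congrArg Subtype.val hxy
      have h7 : f ((x : G)⁻¹ * y : G) = 1 := by rw [map_mul, map_inv, h6, inv_mul_cancel]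
      have h8 := h3 _ (mul_mem (inv_mem x.2) y.2) h7
      exact Subtype.ext (inv_mul_eq_one.1 h8)
    · rintro ⟨_, x, hx, rfl⟩
      exact ⟨⟨x, hx⟩, rfl⟩
  · exact h5 (f x) ⟨x, hx, rfl⟩ fun h6 => hx1 (h3 x hx h6)

section
variable {G : Type*} [Group G] {A B : Subgroup G}

lemma P3_comm (eA : A ≃* Equiv.Perm (Fin 3)) (eB : B ≃* Equiv.Perm (Fin 3)) (hAB : A ⊓ B = ⊥)
    (hc : ∀ a ∈ A, ∀ b ∈ B, a * b = b * a) (hi : (A ⊔ B).index = 2) (g : G)
    (hg : A.map (MulAut.conj g).toMonoidHom = B) : P3 (commutator G) := by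
  classical
  have hN : (A ⊔ B).Normal := Subgroup.normal_of_index_eq_two hi
  -- the product decomposition
  let π : A × B →* G := MonoidHom.noncommCoprod A.subtype B.subtype (fun a b => hc a a.2 b b.2)
  have hπ : ∀ x : A × B, π x = x.1 * x.2 := fun x => rfl
  have hinj : Function.Injective π := by
    rw [injective_iff_map_eq_one]
    rintro ⟨a, b⟩ h
    rw [hπ] at h
    have h1 : (a : G) = (b : G)⁻¹ := eq_inv_of_mul_eq_one_left h
    have h2 : (a : G) ∈ A ⊓ B := by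
      refine Subgroup.mem_inf.2 ⟨a.2, ?_⟩
      rw [h1]; exact B.inv_mem b.2
    rw [hAB, Subgroup.mem_bot] at h2
    have h3 : (b : G) = 1 := by rw [h2] at h1; exact (inv_eq_one.1 h1.symm)
    exact Prod.ext (Subtype.ext h2) (Subtype.ext h3)
  have hran : π.range = A ⊔ B := by
    apply le_antisymm
    · rintro _ ⟨x, rfl⟩
      exact Subgroup.mul_mem_sup x.1.2 x.2.2
    · apply sup_le
      · intro a ha; exact ⟨(⟨a, ha⟩, 1), by rw [hπ]; simp⟩
      · intro b hb; exact ⟨(1, ⟨b, hb⟩), by rw [hπ]; simp⟩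
  let e : A × B ≃* (A ⊔ B : Subgroup G) := (MonoidHom.ofInjective hinj).trans (MulEquiv.subgroupCongr hran)
  have he : ∀ x : A × B, (e x : G) = x.1 * x.2 := fun x => rfl
  let sA : A →* ℤˣ := Equiv.Perm.sign.comp eA.toMonoidHom
  let sB : B →* ℤˣ := Equiv.Perm.sign.comp eB.toMonoidHom
  let s0 : A × B →* ℤˣ := (sA.comp (MonoidHom.fst A B)) * (sB.comp (MonoidHom.snd A B))
  let s : (A ⊔ B : Subgroup G) →* ℤˣ := s0.comp e.symm.toMonoidHom
  have hs : ∀ x : A × B, s (e x) = sA x.1 * sB x.2 := by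
    intro x
    show s0 (e.symm (e x)) = _
    rw [MulEquiv.symm_apply_apply]; rfl
  have hsA : ∀ a (ha : a ∈ A) (h : a ∈ A ⊔ B), s ⟨a, h⟩ = sA ⟨a, ha⟩ := by
    intro a ha h
    have h1 : (⟨a, h⟩ : (A ⊔ B : Subgroup G)) = e (⟨a, ha⟩, 1) := Subtype.ext (by rw [he]; simp)
    rw [h1, hs]; simp
  have hsB : ∀ b (hb : b ∈ B) (h : b ∈ A ⊔ B), s ⟨b, h⟩ = sB ⟨b, hb⟩ := by
    intro b hb h
    have h1 : (⟨b, h⟩ : (A ⊔ B : Subgroup G)) = e (1, ⟨b, hb⟩) := Subtype.ext (by rw [he]; simp)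
    rw [h1, hs]; simp
  have hcm : ∀ x y : (A ⊔ B : Subgroup G), s (x * y * x⁻¹) = s y := by
    intro x y
    rw [map_mul, map_mul, map_inv, mul_comm (s x), mul_assoc, mul_inv_cancel, mul_one]
  have h2 : g * g ∈ A ⊔ B := Subgroup.mul_self_mem_of_index_two hi g
  have hAg : ∀ a ∈ A, g * a * g⁻¹ ∈ B := by
    intro a ha
    rw [← hg]
    exact ⟨a, ha, rfl⟩
  -- invariance under `g`
  have hga : ∀ a (ha : a ∈ A) (h : g * a * g⁻¹ ∈ A ⊔ B) (h' : a ∈ A ⊔ B), s ⟨g * a * g⁻¹, h⟩ = s ⟨a, h'⟩ := by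
    intro a ha h h'
    rw [hsA a ha h', hsB _ (hAg a ha) h]
    let t : A ≃* B := (((MulAut.conj g).subgroupMap A).trans (MulEquiv.subgroupCongr hg))
    have h3 : (Equiv.Perm.sign.comp ((eA.symm.trans t).trans eB).toMonoidHom : Equiv.Perm (Fin 3) →* ℤˣ) = Equiv.Perm.sign := by
      apply Equiv.Perm.eq_sign_of_surjective_hom
      exact (Equiv.Perm.sign_surjective (Fin 3)).comp (MulEquiv.surjective _)
    have h4 := DFunLike.congr_fun h3 (eA ⟨a, ha⟩)
    have h5 : sB ⟨g * a * g⁻¹, hAg a ha⟩ = Equiv.Perm.sign (eB (t (eA.symm (eA ⟨a, ha⟩)))) := by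
      rw [MulEquiv.symm_apply_apply]; rfl
    rw [h5]; exact h4
  have hgn : ∀ n (h' : n ∈ A ⊔ B) (h : g * n * g⁻¹ ∈ A ⊔ B), s ⟨g * n * g⁻¹, h⟩ = s ⟨n, h'⟩ := by
    have hN' : ∀ n ∈ A ⊔ B, g * n * g⁻¹ ∈ A ⊔ B := fun n hn => hN.conj_mem n hn g
    have hgb : ∀ b (hb : b ∈ B) (h : g * b * g⁻¹ ∈ A ⊔ B) (h' : b ∈ A ⊔ B), s ⟨g * b * g⁻¹, h⟩ = s ⟨b, h'⟩ := by
      intro b hb h h'
      have hb' := hb
      rw [← hg] at hb'
      obtain ⟨a, ha, hab⟩ := hb'
      have hab' : b = g * a * g⁻¹ := hab.symm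
      subst hab'
      have ha' : a ∈ A ⊔ B := Subgroup.mem_sup_left ha
      rw [hga a ha h' ha']
      have h3 := hcm ⟨g * g, h2⟩ ⟨a, ha'⟩
      rw [← h3]
      congr 1
      apply Subtype.ext
      show g * (g * a * g⁻¹) * g⁻¹ = (g * g) * a * (g * g)⁻¹
      group
    intro n h' h
    obtain ⟨⟨a, b⟩, hx⟩ := e.surjective ⟨n, h'⟩
    have hn : n = (a : G) * b := by
      have := congrArg Subtype.val hx
      exact this.symm
    have ha' : (a : G) ∈ A ⊔ B := Subgroup.mem_sup_left a.2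
    have hb' : (b : G) ∈ A ⊔ B := Subgroup.mem_sup_right b.2
    have h3 : (⟨n, h'⟩ : (A ⊔ B : Subgroup G)) = ⟨a, ha'⟩ * ⟨b, hb'⟩ := Subtype.ext hn
    have h4 : (⟨g * n * g⁻¹, h⟩ : (A ⊔ B : Subgroup G)) = ⟨g * a * g⁻¹, hN' _ ha'⟩ * ⟨g * b * g⁻¹, hN' _ hb'⟩ := by
      apply Subtype.ext
      show g * n * g⁻¹ = (g * a * g⁻¹) * (g * b * g⁻¹)
      rw [hn]; group
    rw [h3, h4, map_mul, map_mul, hga a a.2 _ ha', hgb b b.2 _ hb']
  have hgN : g ∉ A ⊔ B := by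
    intro h
    have hA : A = B := by
      have h3 : A.map (MulAut.conj g).toMonoidHom = A := by
        obtain ⟨⟨a, b⟩, hx⟩ := e.surjective ⟨g, h⟩
        have hn : g = (a : G) * b := by
          have := congrArg Subtype.val hx
          exact this.symm
        have h4 : ∀ x ∈ A, g * x * g⁻¹ = a * x * (a : G)⁻¹ := by
          intro x hx
          rw [hn, _root_.mul_inv_rev]
          have := hc x hx b b.2
          calc (a : G) * b * x * ((b : G)⁻¹ * (a : G)⁻¹) = a * (b * x) * (b : G)⁻¹ * (a : G)⁻¹ := by group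
            _ = a * x * (a : G)⁻¹ := by rw [← this]; group
        ext y
        constructor
        · rintro ⟨x, hx, rfl⟩
          show g * x * g⁻¹ ∈ A
          rw [h4 x hx]
          exact mul_mem (mul_mem a.2 hx) (inv_mem a.2)
        · intro hy
          refine ⟨(a : G)⁻¹ * y * a, mul_mem (mul_mem (inv_mem a.2) hy) a.2, ?_⟩
          show g * ((a : G)⁻¹ * y * a) * g⁻¹ = y
          rw [h4 _ (mul_mem (mul_mem (inv_mem a.2) hy) a.2)]
          group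
      rw [← h3]; exact hg
    rw [← hA, inf_idem] at hAB
    have h5 := Nat.card_congr eA.toEquiv
    rw [hAB] at h5
    simp [Fintype.card_perm, Nat.factorial] at h5
  have hinv : ∀ (y n : G) (h' : n ∈ A ⊔ B) (h : y * n * y⁻¹ ∈ A ⊔ B), s ⟨y * n * y⁻¹, h⟩ = s ⟨n, h'⟩ := by
    intro y n h' h
    by_cases hy : y ∈ A ⊔ B
    · exact hcm ⟨y, hy⟩ ⟨n, h'⟩
    · have h3 : g⁻¹ * y ∈ A ⊔ B := by
        rw [Subgroup.mul_mem_iff_of_index_two hi]
        exact ⟨fun h => absurd (inv_mem_iff.1 h) hgN, fun h => absurd h hy⟩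
      have h4 : (g⁻¹ * y) * n * (g⁻¹ * y)⁻¹ ∈ A ⊔ B := mul_mem (mul_mem h3 h') (inv_mem h3)
      have h5 : g * ((g⁻¹ * y) * n * (g⁻¹ * y)⁻¹) * g⁻¹ = y * n * y⁻¹ := by group
      have h6 : s ⟨y * n * y⁻¹, h⟩ = s ⟨g * ((g⁻¹ * y) * n * (g⁻¹ * y)⁻¹) * g⁻¹, by rw [h5]; exact h⟩ := by
        congr 1
        exact Subtype.ext h5.symm
      rw [h6, hgn _ h4]
      exact hcm ⟨g⁻¹ * y, h3⟩ ⟨n, h'⟩
  -- the commutators
  have hM : commutator G ≤ s.ker.map (A ⊔ B).subtype := by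
    rw [commutator_def, Subgroup.commutator_le]
    intro x _ y _
    rw [commutatorElement_def]
    have key : ∀ (x y : G), x ∈ A ⊔ B → x * y * x⁻¹ * y⁻¹ ∈ s.ker.map (A ⊔ B).subtype := by
      intro x y hx
      have h3 : y * x⁻¹ * y⁻¹ ∈ A ⊔ B := hN.conj_mem _ (inv_mem hx) y
      refine ⟨⟨x, hx⟩ * ⟨y * x⁻¹ * y⁻¹, h3⟩, ?_, ?_⟩
      · show s _ = 1
        rw [map_mul, hinv y x⁻¹ (inv_mem hx) h3]
        have : (⟨x⁻¹, inv_mem hx⟩ : (A ⊔ B : Subgroup G)) = ⟨x, hx⟩⁻¹ := rfl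
        rw [this, map_inv, mul_inv_cancel]
      · show x * (y * x⁻¹ * y⁻¹) = _
        group
    by_cases hx : x ∈ A ⊔ B
    · exact key x y hx
    · by_cases hy : y ∈ A ⊔ B
      · have := inv_mem (key y x hy)
        have h3 : (y * x * y⁻¹ * x⁻¹)⁻¹ = x * y * x⁻¹ * y⁻¹ := by group
        rwa [h3] at this
      · have h3 : x * y ∈ A ⊔ B := by
          rw [Subgroup.mul_mem_iff_of_index_two hi]
          exact ⟨fun h => absurd h hx, fun h => absurd h hy⟩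
        have h4 := key (x * y) x h3
        -- x y x y⁻¹ x⁻¹ x⁻¹ = x (y x y⁻¹ x⁻¹) x⁻¹
        have h6 := inv_mem h4
        have h7 : (x * y * x * (x * y)⁻¹ * x⁻¹)⁻¹ = x * (x * y * x⁻¹ * y⁻¹) * x⁻¹ := by
          simp only [_root_.mul_inv_rev, inv_inv, mul_assoc]
        rw [h7] at h6
        obtain ⟨⟨z, hz⟩, hz1, hz2⟩ := h6
        have hz2' : z = x * (x * y * x⁻¹ * y⁻¹) * x⁻¹ := hz2
        have h8 : x⁻¹ * z * x⁻¹⁻¹ ∈ A ⊔ B := hN.conj_mem _ hz x⁻¹
        refine ⟨⟨x⁻¹ * z * x⁻¹⁻¹, h8⟩, ?_, ?_⟩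
        · show s _ = 1
          rw [hinv x⁻¹ z hz h8]
          exact hz1
        · show x⁻¹ * z * x⁻¹⁻¹ = _
          rw [hz2']; group
  have hle : commutator G ≤ A ⊔ B := fun x hx => by
    obtain ⟨y, -, rfl⟩ := hM hx
    exact y.2
  refine ⟨(eA.toMonoidHom.comp ((MonoidHom.fst A B).comp e.symm.toMonoidHom)).comp (Subgroup.inclusion hle), ?_, ?_⟩
  · intro σ
    obtain ⟨a, rfl⟩ := eA.surjective σ
    have h3 : (a : G) * g * (a : G)⁻¹ * g⁻¹ ∈ commutator G := by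
      rw [← commutatorElement_def, commutator_def]
      exact Subgroup.commutator_mem_commutator (Subgroup.mem_top _) (Subgroup.mem_top _)
    refine ⟨⟨_, h3⟩, ?_⟩
    have h4 : g * (a : G)⁻¹ * g⁻¹ ∈ B := hAg _ (inv_mem a.2)
    have h5 : (Subgroup.inclusion hle ⟨_, h3⟩ : (A ⊔ B : Subgroup G)) = e (a, ⟨_, h4⟩) := by
      apply Subtype.ext
      show (a : G) * g * (a : G)⁻¹ * g⁻¹ = a * (g * (a : G)⁻¹ * g⁻¹)
      group
    show eA ((e.symm (Subgroup.inclusion hle ⟨_, h3⟩)).1) = eA a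
    rw [h5, MulEquiv.symm_apply_apply]
  · rintro ⟨x, hx⟩ h3
    have h4 : eA ((e.symm (Subgroup.inclusion hle ⟨x, hx⟩)).1) = 1 := h3
    have h5 : (e.symm (Subgroup.inclusion hle ⟨x, hx⟩)).1 = 1 := by
      rwa [MulEquiv.map_eq_one_iff] at h4
    obtain ⟨b, hb⟩ : ∃ b : B, e (1, b) = Subgroup.inclusion hle ⟨x, hx⟩ := by
      refine ⟨(e.symm (Subgroup.inclusion hle ⟨x, hx⟩)).2, ?_⟩
      rw [← h5]
      exact e.apply_symm_apply _
    have hb' : (b : G) = x := by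
      have := congrArg Subtype.val hb
      rw [he] at this
      simpa using this
    obtain ⟨y, hy1, hy2⟩ := hM hx
    have h6 : y = Subgroup.inclusion hle ⟨x, hx⟩ := Subtype.ext hy2
    have h7 : sB b = 1 := by
      have : s y = 1 := hy1
      rw [h6, ← hb, hs] at this
      simpa using this
    have h8 : Equiv.Perm.sign (eB b) = 1 := h7
    have h9 : ∀ σ : Equiv.Perm (Fin 3), Equiv.Perm.sign σ = 1 → σ ^ 3 = 1 := by decide
    have h10 : b ^ 3 = 1 := eB.injective (by rw [map_pow, h9 _ h8, map_one])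
    have h11 : x ^ 3 = 1 := by rw [← hb']; exact congrArg Subtype.val h10
    have h12 : (⟨x, hx⟩ : commutator G) ^ 3 = 1 := Subtype.ext h11
    exact Odd.of_dvd_nat (by decide) (orderOf_dvd_of_pow_eq_one h12)

end

/-! ### change of the field -/

section
variable {F K : Type*} [Field F] [Field K] {ι : Type} [Fintype ι] [DecidableEq ι]

/-- the isomorphism of general linear groups given by an isomorphism of fields -/
def glE (e : F ≃+* K) : GL ι F ≃* GL ι K := Units.mapEquiv (e.mapMatrix (m := ι)).toMulEquiv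

lemma glE_mulVec (e : F ≃+* K) (g : GL ι F) (u : ι → F) :
    ((glE e g : GL ι K) : Matrix ι ι K) *ᵥ (e ∘ u) = e ∘ ((g : Matrix ι ι F) *ᵥ u) := by
  funext i
  show ∑ j, e ((g : Matrix ι ι F) i j) * e (u j) = e (∑ j, (g : Matrix ι ι F) i j * u j)
  rw [map_sum]
  simp

lemma map_glE (e : F ≃+* K) (Q : (ι → F) → F) (Q' : (ι → K) → K) (h : ∀ u, Q' (e ∘ u) = e (Q u)) :
    (isometryGroup F Q).map (glE e : GL ι F ≃* GL ι K).toMonoidHom = isometryGroup K Q' := by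
  ext g
  constructor
  · rintro ⟨x, hx, rfl⟩ u v
    obtain ⟨w, rfl⟩ : ∃ w : ι → F, u = e ∘ w := ⟨e.symm ∘ u, by funext i; simp⟩
    show Q' (((glE e x : GL ι K) : Matrix ι ι K) *ᵥ (e ∘ w)) = Q' (e ∘ w)
    rw [glE_mulVec, h, h]
    exact congrArg e (hx w 0)
  · intro hg
    obtain ⟨x, rfl⟩ := (glE e (ι := ι)).surjective g
    refine ⟨x, fun w v => ?_, rfl⟩
    have h1 := hg (e ∘ w) 0
    have h2 : Q' (((glE e x : GL ι K) : Matrix ι ι K) *ᵥ (e ∘ w)) = Q' (e ∘ w) := h1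
    rw [glE_mulVec, h, h] at h2
    exact e.injective h2

/-- transport of `Omega` along an isomorphism of fields -/
noncomputable def omF (e : F ≃+* K) (Q : (ι → F) → F) (Q' : (ι → K) → K) (h : ∀ u, Q' (e ∘ u) = e (Q u)) :
    Omega F Q ≃* Omega K Q' :=
  (((((glE e : GL ι F ≃* GL ι K).subgroupMap (isometryGroup F Q)).trans (MulEquiv.subgroupCongr (map_glE e Q Q' h))).subgroupMap
      (commutator (isometryGroup F Q))).trans (MulEquiv.subgroupCongr (by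
        rw [commutator_def, Subgroup.map_commutator, Subgroup.map_top_of_surjective _ (MulEquiv.surjective _)]; rfl)))

end

theorem P3_omega {F : Type*} [Field F] [Fintype F] (hF : Fintype.card F = 2) : P3 (Omega F (quadFormPlus 2 F)) := by
  obtain ⟨-, A, B, ⟨eA⟩, ⟨eB⟩, h1, h2, h3, g, hg⟩ := Cfsg.Agent.S2566.result
  have h4 := P3_comm eA eB h1 h2 h3 g hg
  have hp : Fact (Nat.Prime 2) := ⟨Nat.prime_two⟩
  let e : F ≃+* ZMod 2 := (ZMod.ringEquivOfPrime F Nat.prime_two hF).symm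
  refine h4.of_equiv (omF e _ _ fun u => ?_)
  simp [quadFormPlus]

end Cfsg.Agent.ClBN
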